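import Cfsg.Agent.H540.ClassNum
import Cfsg.Agent.H686.CharKit

/-!
# The counting engine for noncentral abelian chief factors (S4908)

`L / V = Q`, `V` abelian, all degrees of `L` satisfy `d² ≤ B`: then
`|Q|² ≤ B (1 + ∑_{h ≠ 1} w(h) (1 + |C_Q(h)|))` if `|C_V(x)| ≤ w(f x) |V|` for `x ∉ V`.
-/

set_option autoImplicit false
set_option linter.unusedSectionVars false
set_option linter.style.haveILetI false

universe u v

namespace Cfsg.Agent.H211.SD

open Cfsg Cfsg.Agent.Characters.Core Cfsg.Agent.H686.CharKit Cfsg.Agent.H540.ClassNum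
open Finset

variable {L : Type u} {Q : Type v} [Group L] [Group Q]

/-- `|C_L(x)| ≤ |C_V(x)| |C_Q(f x)|` -/
theorem cent_le [Finite L] [Finite Q] (f : L →* Q) (x : L) :
    cent x (⊤ : Subgroup L) ≤ cent x f.ker * cent (f x) (⊤ : Subgroup Q) := by
  rw [cent_top, cent_top, cent_eq_card]
  let g : Subgroup.centralizer ({x} : Set L) →* Subgroup.centralizer ({f x} : Set Q) :=
    (f.comp (Subgroup.subtype _)).codRestrict _ fun y => by
      rw [Subgroup.mem_centralizer_singleton_iff]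
      show f y * f x = f x * f y
      rw [← map_mul, ← map_mul, Subgroup.mem_centralizer_singleton_iff.1 y.2]
  have h1 : Nat.card (Subgroup.centralizer ({x} : Set L)) = Nat.card g.ker * Nat.card g.range := by
    rw [← Subgroup.index_ker, Subgroup.card_mul_index]
  rw [h1]
  refine Nat.mul_le_mul ?_ (Nat.le_of_dvd Nat.card_pos (Subgroup.card_subgroup_dvd_card _))
  refine Nat.card_le_card_of_injective (fun y => (⟨(y : Subgroup.centralizer ({x} : Set L)), ?_, (y : Subgroup.centralizer ({x} : Set L)).2⟩ :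
    (f.ker ⊓ Subgroup.centralizer {x} : Subgroup L))) ?_
  · have h2 := y.2
    rw [MonoidHom.mem_ker] at h2
    exact congrArg Subtype.val h2
  · intro a b hab
    have h2 := congrArg (fun z : (f.ker ⊓ Subgroup.centralizer {x} : Subgroup L) => (z : L)) hab
    exact Subtype.ext (Subtype.ext h2)

/-- `∑_x |C_L(x)| ≤ |V|² + ∑_{x ∉ V} |C_V(x)| (1 + |C_Q(x)|)` -/
theorem sum_cent_le [Fintype L] [Finite Q] (f : L →* Q) [DecidablePred fun x : L => x ∈ f.ker]
    (hab : ∀ a ∈ f.ker, ∀ b ∈ f.ker, a * b = b * a) :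
    ∑ x : L, cent x (⊤ : Subgroup L) ≤ Nat.card f.ker ^ 2 +
      ∑ x ∈ univ.filter (fun x : L => x ∉ f.ker), cent x f.ker * (1 + cent (f x) (⊤ : Subgroup Q)) := by
  have := Fintype.ofFinite f.ker
  have hV : ∀ x ∈ f.ker, cent x f.ker = Nat.card f.ker := by
    intro x hx
    rw [cent_eq_card]
    congr 1
    have : (f.ker ⊓ Subgroup.centralizer {x} : Subgroup L) = f.ker := by
      rw [inf_eq_left]
      intro y hy
      rw [Subgroup.mem_centralizer_singleton_iff]
      exact hab y hy x hx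
    rw [this]
  have hsplit : ∀ F : L → ℕ, ∑ x : L, F x = ∑ x ∈ univ.filter (fun x : L => x ∈ f.ker), F x +
      ∑ x ∈ univ.filter (fun x : L => x ∉ f.ker), F x := fun F =>
    (Finset.sum_filter_add_sum_filter_not univ (fun x : L => x ∈ f.ker) F).symm
  have hin : ∀ F : L → ℕ, ∑ x ∈ univ.filter (fun x : L => x ∈ f.ker), F x = ∑ y : f.ker, F y := by
    intro F
    symm
    refine Finset.sum_bij (fun y _ => (y : L)) ?_ ?_ ?_ ?_
    · intro y _; exact Finset.mem_filter.2 ⟨Finset.mem_univ _, y.2⟩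
    · intro a _ b _ h; exact Subtype.ext h
    · intro y hy; exact ⟨⟨y, (Finset.mem_filter.1 hy).2⟩, Finset.mem_univ _, rfl⟩
    · intro y _; rfl
  have h1 : ∑ x ∈ univ.filter (fun x : L => x ∈ f.ker), cent x (⊤ : Subgroup L) =
      Nat.card f.ker ^ 2 + ∑ x ∈ univ.filter (fun x : L => x ∉ f.ker), cent x f.ker := by
    rw [hin, ← sum_cent_top_aux, hsplit]
    congr 1
    rw [hin (fun x => cent x f.ker), Finset.sum_congr rfl fun (y : f.ker) _ => hV (y : L) y.2, Finset.sum_const, Finset.card_univ, smul_eq_mul,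
      ← Nat.card_eq_fintype_card, sq]
  rw [hsplit, h1, add_assoc, ← Finset.sum_add_distrib]
  refine Nat.add_le_add_left (Finset.sum_le_sum fun x _ => ?_) _
  have := cent_le f x
  nlinarith

/-- the fibres of a surjective homomorphism -/
theorem sum_fibre [Fintype L] [Fintype Q] [DecidableEq Q] (f : L →* Q) (hf : Function.Surjective f) (F : Q → ℚ)
    [DecidablePred fun x : L => x ∈ f.ker] :
    ∑ x ∈ univ.filter (fun x : L => x ∉ f.ker), F (f x) = Nat.card f.ker * ∑ h ∈ univ.erase (1 : Q), F h := by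
  have hmaps : ∀ x ∈ univ.filter (fun x : L => x ∉ f.ker), f x ∈ univ.erase (1 : Q) := by
    intro x hx
    rw [Finset.mem_erase]
    exact ⟨fun h => (Finset.mem_filter.1 hx).2 (MonoidHom.mem_ker.2 h), Finset.mem_univ _⟩
  rw [← Finset.sum_fiberwise_of_maps_to hmaps, Finset.mul_sum]
  refine Finset.sum_congr rfl fun h hh => ?_
  have e1 : ∀ x ∈ (univ.filter (fun x : L => x ∉ f.ker)).filter (fun x => f x = h), F (f x) = F h := by
    intro x hx
    rw [(Finset.mem_filter.1 hx).2]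
  rw [Finset.sum_congr rfl e1, Finset.sum_const, nsmul_eq_mul]
  congr 2
  obtain ⟨y, hy⟩ := hf h
  have hh1 := (Finset.mem_erase.1 hh).1
  have := Fintype.ofFinite f.ker
  rw [Nat.card_eq_fintype_card, ← Finset.card_univ]
  symm
  refine Finset.card_bij (fun (v : f.ker) _ => (v : L) * y) ?_ ?_ ?_
  · intro v _
    have hv := MonoidHom.mem_ker.1 v.2
    have e2 : f ((v : L) * y) = h := by rw [map_mul, hv, one_mul, hy]
    rw [Finset.mem_filter, Finset.mem_filter]
    refine ⟨⟨Finset.mem_univ _, fun hm => hh1 ?_⟩, e2⟩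
    rw [← e2]
    exact MonoidHom.mem_ker.1 hm
  · intro a _ b _ hab
    exact Subtype.ext (mul_right_cancel hab)
  · intro x hx
    have e2 := (Finset.mem_filter.1 hx).2
    refine ⟨⟨x * y⁻¹, ?_⟩, Finset.mem_univ _, ?_⟩
    · rw [MonoidHom.mem_ker, map_mul, map_inv, e2, hy, mul_inv_cancel]
    · show x * y⁻¹ * y = x
      rw [inv_mul_cancel_right]

/-- **the engine**, weighted form -/
theorem weighted [Finite L] [Fintype Q] [DecidableEq Q] (f : L →* Q) (hf : Function.Surjective f)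
    (hab : ∀ a ∈ f.ker, ∀ b ∈ f.ker, a * b = b * a) (B : ℕ)
    (hB : ∀ χ : IrrCharacter L, charDegree (χ : L → ℂ) ^ 2 ≤ B) (w : Q → ℚ)
    (hw : ∀ x : L, f x ≠ 1 → (cent x f.ker : ℚ) ≤ w (f x) * Nat.card f.ker) :
    (Nat.card Q : ℚ) ^ 2 ≤ B * (1 + ∑ h ∈ univ.erase (1 : Q), w h * (1 + cent h (⊤ : Subgroup Q))) := by
  classical
  have := Fintype.ofFinite L
  have hfin := finite_irr (G := L)
  have := Fintype.ofFinite (IrrCharacter L)
  -- the sum of the squares
  have h1 : Nat.card L ≤ Nat.card (ConjClasses L) * B := by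
    rw [← sum_deg_sq (G := L), ← card_irr, Nat.card_eq_fintype_card, ← Finset.card_univ, ← smul_eq_mul]
    exact Finset.sum_le_card_nsmul _ _ _ fun χ _ => hB χ
  -- the number of classes
  have h2 := card_conjClasses_mul_card (G := L)
  have h3 := sum_cent_le f hab
  rw [← h2] at h3
  have hLc : Nat.card L = Nat.card f.ker * Nat.card Q := by
    rw [← Subgroup.card_mul_index f.ker, Subgroup.index_ker, MonoidHom.range_eq_top.2 hf,
      Nat.card_congr Subgroup.topEquiv.toEquiv]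
  have hVpos : (0 : ℚ) < Nat.card f.ker := Nat.cast_pos.2 Nat.card_pos
  have hQpos : (0 : ℚ) < Nat.card Q := Nat.cast_pos.2 Nat.card_pos
  have h4 : ((Nat.card (ConjClasses L) * Nat.card L : ℕ) : ℚ) ≤ (Nat.card f.ker : ℚ) ^ 2 *
      (1 + ∑ h ∈ univ.erase (1 : Q), w h * (1 + cent h (⊤ : Subgroup Q))) := by
    refine (Nat.cast_le (α := ℚ).2 h3).trans ?_
    push_cast
    rw [mul_add, mul_one]
    refine add_le_add_right ?_ _
    have h5 : ∑ x ∈ univ.filter (fun x : L => x ∉ f.ker), (cent x f.ker : ℚ) * (1 + cent (f x) (⊤ : Subgroup Q)) ≤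
        ∑ x ∈ univ.filter (fun x : L => x ∉ f.ker), (Nat.card f.ker : ℚ) * (w (f x) * (1 + cent (f x) (⊤ : Subgroup Q))) := by
      refine Finset.sum_le_sum fun x hx => ?_
      have h6 := hw x fun h => (Finset.mem_filter.1 hx).2 (MonoidHom.mem_ker.2 h)
      have h7 : (0 : ℚ) ≤ 1 + cent (f x) (⊤ : Subgroup Q) := by positivity
      calc (cent x f.ker : ℚ) * (1 + cent (f x) (⊤ : Subgroup Q))
          ≤ (w (f x) * Nat.card f.ker) * (1 + cent (f x) (⊤ : Subgroup Q)) := mul_le_mul_of_nonneg_right h6 h7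
        _ = _ := by ring
    refine h5.trans (le_of_eq ?_)
    rw [← Finset.mul_sum, sum_fibre f hf (fun h => w h * (1 + cent h (⊤ : Subgroup Q)))]
    ring
  have h5 : (Nat.card L : ℚ) * Nat.card L ≤ B * ((Nat.card f.ker : ℚ) ^ 2 *
      (1 + ∑ h ∈ univ.erase (1 : Q), w h * (1 + cent h (⊤ : Subgroup Q)))) := by
    have h6 : (Nat.card L : ℚ) * Nat.card L ≤ (Nat.card (ConjClasses L) * B : ℕ) * Nat.card L :=
      mul_le_mul_of_nonneg_right (Nat.cast_le.2 h1) (Nat.cast_nonneg _)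
    refine h6.trans ?_
    have h7 : ((Nat.card (ConjClasses L) * B : ℕ) : ℚ) * Nat.card L =
        B * ((Nat.card (ConjClasses L) * Nat.card L : ℕ) : ℚ) := by push_cast; ring
    rw [h7]
    exact mul_le_mul_of_nonneg_left h4 (Nat.cast_nonneg _)
  rw [hLc] at h5
  push_cast at h5
  have h6 : (0 : ℚ) < (Nat.card f.ker : ℚ) ^ 2 := by positivity
  have h7 : (Nat.card f.ker : ℚ) ^ 2 * (Nat.card Q : ℚ) ^ 2 ≤ (Nat.card f.ker : ℚ) ^ 2 *
      (B * (1 + ∑ h ∈ univ.erase (1 : Q), w h * (1 + cent h (⊤ : Subgroup Q)))) := by nlinarith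
  exact le_of_mul_le_mul_left h7 h6

/-- the engine, uniform form -/
theorem uniform [Finite L] [Finite Q] (f : L →* Q) (hf : Function.Surjective f)
    (hab : ∀ a ∈ f.ker, ∀ b ∈ f.ker, a * b = b * a) (B q : ℕ) (hq : 0 < q)
    (hB : ∀ χ : IrrCharacter L, charDegree (χ : L → ℂ) ^ 2 ≤ B)
    (hw : ∀ x : L, f x ≠ 1 → q * cent x f.ker ≤ Nat.card f.ker) :
    q * Nat.card Q ^ 2 < B * (q + Nat.card (ConjClasses Q) * Nat.card Q) := by
  classical
  have := Fintype.ofFinite Q
  have hq' : (0 : ℚ) < q := Nat.cast_pos.2 hq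
  have h1 := weighted f hf hab B hB (fun _ => (q : ℚ)⁻¹) (fun x hx => by
    have h2 : ((q * cent x f.ker : ℕ) : ℚ) ≤ Nat.card f.ker := Nat.cast_le.2 (hw x hx)
    push_cast at h2
    rw [inv_mul_eq_div, le_div_iff₀ hq', mul_comm]
    exact h2)
  rw [← Finset.mul_sum] at h1
  have h2 : ∑ h ∈ univ.erase (1 : Q), (1 + (cent h (⊤ : Subgroup Q) : ℚ)) = Nat.card (ConjClasses Q) * Nat.card Q - 1 := by
    have h3 := card_conjClasses_mul_card (G := Q)
    have h4 : ∑ h : Q, (1 + (cent h (⊤ : Subgroup Q) : ℚ)) = Nat.card Q + Nat.card (ConjClasses Q) * Nat.card Q := by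
      rw [Finset.sum_add_distrib, Finset.sum_const, Finset.card_univ, ← Nat.card_eq_fintype_card, nsmul_eq_mul, mul_one]
      congr 1
      rw [← Nat.cast_sum, ← h3]
      push_cast
      ring
    have h5 : cent (1 : Q) (⊤ : Subgroup Q) = Nat.card Q := by
      rw [cent_top]
      have : Subgroup.centralizer ({1} : Set Q) = ⊤ := by
        rw [eq_top_iff]
        intro y _
        rw [Subgroup.mem_centralizer_singleton_iff]
        simp
      rw [this, Nat.card_congr Subgroup.topEquiv.toEquiv]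
    have h6 := Finset.add_sum_erase univ (fun h : Q => (1 + (cent h (⊤ : Subgroup Q) : ℚ))) (Finset.mem_univ 1)
    rw [h4, h5] at h6
    linarith
  rw [h2] at h1
  have hBpos : (0 : ℚ) < B := by
    have h3 : 1 ^ 2 ≤ B := by
      have h4 := hB ⟨1, isIrr_one⟩
      have h5 : charDegree ((⟨1, isIrr_one⟩ : IrrCharacter L) : L → ℂ) = 1 := by simp [charDegree]
      rwa [h5] at h4
    exact Nat.cast_pos.2 (by omega)
  have h3 : (q : ℚ) * (Nat.card Q : ℚ) ^ 2 ≤ B * (q + (Nat.card (ConjClasses Q) * Nat.card Q - 1)) := by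
    have h4 := mul_le_mul_of_nonneg_left h1 hq'.le
    have h5 : (q : ℚ) * (B * (1 + (q : ℚ)⁻¹ * (Nat.card (ConjClasses Q) * Nat.card Q - 1))) =
        B * (q + (Nat.card (ConjClasses Q) * Nat.card Q - 1)) := by
      field_simp
    rwa [h5] at h4
  have h4 : (q : ℚ) * (Nat.card Q : ℚ) ^ 2 < B * (q + Nat.card (ConjClasses Q) * Nat.card Q) := by nlinarith
  exact_mod_cast h4

end Cfsg.Agent.H211.SD
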