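import Cfsg.Agent.H211.SD.Engine

/-!
# Generation by conjugates and the engine for large modules (S4908)
-/

set_option autoImplicit false
set_option linter.unusedSectionVars false
set_option linter.style.haveILetI false

universe u v

namespace Cfsg.Agent.H211.SD

open Cfsg Cfsg.Agent.Characters.Core Cfsg.Agent.H686.CharKit Cfsg.Agent.H540.ClassNum
open Finset

/-- a simple group is generated by `Ω(|Q|)` conjugates of any nontrivial element -/
theorem exists_gen {Q : Type v} [Group Q] [Finite Q] [IsSimpleGroup Q] {h : Q} (hh : h ≠ 1) (s : ℕ)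
    (hs : (Nat.card Q).primeFactorsList.length ≤ s) :
    ∃ g : Fin s → Q, Subgroup.closure (Set.range fun i => g i * h * (g i)⁻¹) = ⊤ := by
  have key : ∀ k : ℕ, ∃ g : Fin k → Q, Subgroup.closure (Set.range fun i => g i * h * (g i)⁻¹) = ⊤ ∨
      k ≤ (Nat.card (Subgroup.closure (Set.range fun i => g i * h * (g i)⁻¹))).primeFactorsList.length := by
    intro k
    induction k with
    | zero => exact ⟨Fin.elim0, Or.inr (Nat.zero_le _)⟩
    | succ k ih =>
      obtain ⟨g, hg⟩ := ih
      have hsub : ∀ y : Q, Subgroup.closure (Set.range fun i => g i * h * (g i)⁻¹) ≤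
          Subgroup.closure (Set.range fun i => (Fin.snoc g y : Fin (k + 1) → Q) i * h * ((Fin.snoc g y : Fin (k + 1) → Q) i)⁻¹) := by
        intro y
        apply Subgroup.closure_mono
        rintro _ ⟨i, rfl⟩
        exact ⟨Fin.castSucc i, by simp [Fin.snoc_castSucc]⟩
      by_cases htop : Subgroup.closure (Set.range fun i => g i * h * (g i)⁻¹) = ⊤
      · refine ⟨Fin.snoc g 1, Or.inl ?_⟩
        rw [eq_top_iff, ← htop]
        exact hsub 1
      · have hk := hg.resolve_left htop
        obtain ⟨y, hy⟩ : ∃ y : Q, y * h * y⁻¹ ∉ Subgroup.closure (Set.range fun i => g i * h * (g i)⁻¹) := by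
          by_contra hcon
          push Not at hcon
          apply htop
          have h1 : Subgroup.normalClosure {h} ≤ Subgroup.closure (Set.range fun i => g i * h * (g i)⁻¹) := by
            rw [Subgroup.normalClosure, Subgroup.closure_le]
            intro z hz
            rw [Group.mem_conjugatesOfSet_iff] at hz
            obtain ⟨a, ha, hza⟩ := hz
            rw [Set.mem_singleton_iff] at ha
            subst ha
            obtain ⟨c, rfl⟩ := isConj_iff.1 hza
            exact hcon c
          have h2 : Subgroup.normalClosure {h} = ⊤ := by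
            rcases (Subgroup.normalClosure_normal (s := {h})).eq_bot_or_eq_top with h3 | h3
            · exfalso
              apply hh
              have h4 : h ∈ Subgroup.normalClosure {h} := Subgroup.subset_normalClosure rfl
              rwa [h3, Subgroup.mem_bot] at h4
            · exact h3
          rw [eq_top_iff, ← h2]
          exact h1
        refine ⟨Fin.snoc g y, Or.inr ?_⟩
        set H := Subgroup.closure (Set.range fun i => g i * h * (g i)⁻¹) with hH
        set H' := Subgroup.closure (Set.range fun i => (Fin.snoc g y : Fin (k + 1) → Q) i * h * ((Fin.snoc g y : Fin (k + 1) → Q) i)⁻¹)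
          with hH'
        have hlt : H < H' := by
          refine lt_of_le_of_ne (hsub y) fun he => hy ?_
          rw [he]
          exact Subgroup.subset_closure ⟨Fin.last k, by simp [Fin.snoc_last]⟩
        obtain ⟨m, hm⟩ := Subgroup.card_dvd_of_le hlt.le
        have hm0 : m ≠ 0 := by
          rintro rfl
          rw [mul_zero] at hm
          exact Nat.card_pos.ne' hm
        have hm1 : m ≠ 1 := by
          rintro rfl
          rw [mul_one] at hm
          exact hlt.ne (Subgroup.eq_of_le_of_card_ge hlt.le hm.le)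
        rw [hm, (Nat.perm_primeFactorsList_mul Nat.card_pos.ne' hm0).length_eq, List.length_append]
        have h5 : 1 ≤ m.primeFactorsList.length := by
          rw [Nat.one_le_iff_ne_zero]
          intro h0
          rw [List.length_eq_zero_iff, Nat.primeFactorsList_eq_nil] at h0
          omega
        omega
  obtain ⟨g, hg⟩ := key s
  refine ⟨g, ?_⟩
  rcases hg with hg | hg
  · exact hg
  · set H := Subgroup.closure (Set.range fun i => g i * h * (g i)⁻¹) with hH
    by_contra htop
    obtain ⟨m, hm⟩ := Subgroup.card_subgroup_dvd_card H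
    have hm0 : m ≠ 0 := by
      rintro rfl
      rw [mul_zero] at hm
      exact Nat.card_pos.ne' hm
    have hm1 : m ≠ 1 := by
      rintro rfl
      rw [mul_one] at hm
      exact htop (Subgroup.eq_top_of_card_eq _ hm.symm)
    rw [hm, (Nat.perm_primeFactorsList_mul Nat.card_pos.ne' hm0).length_eq, List.length_append] at hs
    have h5 : 1 ≤ m.primeFactorsList.length := by
      rw [Nat.one_le_iff_ne_zero]
      intro h0
      rw [List.length_eq_zero_iff, Nat.primeFactorsList_eq_nil] at h0
      omega
    omega

theorem relIndex_mul_cent {L : Type u} [Group L] [Finite L] (V : Subgroup L) (x : L) :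
    (Subgroup.centralizer ({x} : Set L)).relIndex V * cent x V = Nat.card V := by
  rw [cent_eq_card, ← Subgroup.inf_relIndex_right, mul_comm, ← Subgroup.relIndex_bot_left,
    ← Subgroup.relIndex_bot_left, inf_comm]
  exact Subgroup.relIndex_mul_relIndex _ _ _ bot_le inf_le_right

theorem cent_conj {L : Type u} [Group L] [Finite L] (V : Subgroup L) [hV : V.Normal] (x g : L) :
    cent (g * x * g⁻¹) V = cent x V := by
  unfold cent
  refine Nat.card_congr
    { toFun := fun v => ⟨g⁻¹ * v.1 * g, by
        have := hV.conj_mem v.1 v.2.1 g⁻¹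
        rwa [inv_inv] at this, by
        have h1 : g * x * g⁻¹ * v.1 = v.1 * (g * x * g⁻¹) := v.2.2
        show x * (g⁻¹ * v.1 * g) = g⁻¹ * v.1 * g * x
        calc x * (g⁻¹ * v.1 * g) = g⁻¹ * (g * x * g⁻¹ * v.1) * g := by group
          _ = g⁻¹ * (v.1 * (g * x * g⁻¹)) * g := by rw [h1]
          _ = _ := by group⟩
      invFun := fun v => ⟨g * v.1 * g⁻¹, hV.conj_mem v.1 v.2.1 g, by
        have h1 : x * v.1 = v.1 * x := v.2.2
        show g * x * g⁻¹ * (g * v.1 * g⁻¹) = g * v.1 * g⁻¹ * (g * x * g⁻¹)
        calc g * x * g⁻¹ * (g * v.1 * g⁻¹) = g * (x * v.1) * g⁻¹ := by group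
          _ = g * (v.1 * x) * g⁻¹ := by rw [h1]
          _ = _ := by group⟩
      left_inv := fun v => Subtype.ext (by show g * (g⁻¹ * v.1 * g) * g⁻¹ = v.1; group)
      right_inv := fun v => Subtype.ext (by show g⁻¹ * (g * v.1 * g⁻¹) * g = v.1; group) }

/-- if `s` conjugates of `x` generate `L` modulo `V` then `|V| ≤ |V : C_V(x)|^s` -/
theorem card_le_pow {L : Type u} {Q : Type v} [Group L] [Group Q] [Finite L] (f : L →* Q)
    (hf : Function.Surjective f) (hab : ∀ a ∈ f.ker, ∀ b ∈ f.ker, a * b = b * a)
    (hfix : ∀ v ∈ f.ker, (∀ x, x * v = v * x) → v = 1) (x : L) (s : ℕ) (g : Fin s → Q)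
    (hg : Subgroup.closure (Set.range fun i => g i * f x * (g i)⁻¹) = ⊤) :
    Nat.card f.ker ≤ ((Subgroup.centralizer ({x} : Set L)).relIndex f.ker) ^ s := by
  choose y hy using fun i => hf (g i)
  have hbot : (⨅ i, Subgroup.centralizer ({y i * x * (y i)⁻¹} : Set L)) ⊓ f.ker = ⊥ := by
    rw [eq_bot_iff]
    intro v hv
    rw [Subgroup.mem_inf, Subgroup.mem_iInf] at hv
    rw [Subgroup.mem_bot]
    apply hfix v hv.2
    intro z
    -- the elements whose image is in the closure commute with `v`
    let C : Subgroup L := Subgroup.centralizer {v}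
    have h1 : f.ker ≤ C := by
      intro a ha
      rw [Subgroup.mem_centralizer_singleton_iff]
      exact hab a ha v hv.2
    have h2 : C.map f = ⊤ := by
      rw [eq_top_iff, ← hg, Subgroup.closure_le]
      rintro _ ⟨i, rfl⟩
      refine ⟨y i * x * (y i)⁻¹, ?_, ?_⟩
      · show _ ∈ Subgroup.centralizer {v}
        rw [Subgroup.mem_centralizer_singleton_iff]
        exact (Subgroup.mem_centralizer_singleton_iff.1 (hv.1 i)).symm
      · show f (y i * x * (y i)⁻¹) = _
        rw [map_mul, map_mul, map_inv, hy]
    have h3 : C = ⊤ := by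
      rw [eq_top_iff]
      intro a _
      have h4 : f a ∈ C.map f := by rw [h2]; trivial
      obtain ⟨b, hb, hba⟩ := h4
      have h5 : b⁻¹ * a ∈ f.ker := by
        rw [MonoidHom.mem_ker, map_mul, map_inv, hba, inv_mul_cancel]
      have h6 : a = b * (b⁻¹ * a) := by group
      rw [h6]
      exact mul_mem hb (h1 h5)
    have h4 : z ∈ C := by rw [h3]; trivial
    exact Subgroup.mem_centralizer_singleton_iff.1 h4
  have h1 : Nat.card f.ker = (⨅ i, Subgroup.centralizer ({y i * x * (y i)⁻¹} : Set L)).relIndex f.ker := by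
    rw [← Subgroup.inf_relIndex_right, hbot, Subgroup.relIndex_bot_left]
  rw [h1]
  refine (Subgroup.relIndex_iInf_le _).trans (le_of_eq ?_)
  have h2 : ∀ i, (Subgroup.centralizer ({y i * x * (y i)⁻¹} : Set L)).relIndex f.ker =
      (Subgroup.centralizer ({x} : Set L)).relIndex f.ker := by
    intro i
    have e1 := relIndex_mul_cent f.ker (y i * x * (y i)⁻¹)
    have e2 := relIndex_mul_cent f.ker x
    rw [cent_conj] at e1
    have e3 : 0 < cent x f.ker := cent_pos x f.ker
    exact Nat.eq_of_mul_eq_mul_right e3 (e1.trans e2.symm)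
  rw [Finset.prod_congr rfl fun i _ => h2 i, Finset.prod_const, Finset.card_univ, Fintype.card_fin]

/-- **the engine for large modules**: `Q` simple with at most `k` classes, `|Q|` with at most `s` prime factors,
`|V| > (q - 1)^s` -/
theorem large {L : Type u} {Q : Type v} [Group L] [Group Q] [Finite L] [Finite Q] [IsSimpleGroup Q] (f : L →* Q)
    (hf : Function.Surjective f) (hab : ∀ a ∈ f.ker, ∀ b ∈ f.ker, a * b = b * a)
    (hfix : ∀ v ∈ f.ker, (∀ x, x * v = v * x) → v = 1) {B q s k : ℕ} (hq : 0 < q)
    (hB : ∀ χ : IrrCharacter L, charDegree (χ : L → ℂ) ^ 2 ≤ B)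
    (hs : (Nat.card Q).primeFactorsList.length ≤ s) (hV : (q - 1) ^ s < Nat.card f.ker)
    (hk : Nat.card (ConjClasses Q) ≤ k) (hnum : B * (q + k * Nat.card Q) ≤ q * Nat.card Q ^ 2) : False := by
  have h1 := uniform f hf hab B q hq hB (fun x hx => by
    obtain ⟨g, hg⟩ := exists_gen hx s hs
    have h2 := card_le_pow f hf hab hfix x s g hg
    have h3 : q ≤ (Subgroup.centralizer ({x} : Set L)).relIndex f.ker := by
      by_contra hlt
      push Not at hlt
      have h4 : ((Subgroup.centralizer ({x} : Set L)).relIndex f.ker) ^ s ≤ (q - 1) ^ s :=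
        Nat.pow_le_pow_left (by omega) s
      omega
    rw [← relIndex_mul_cent f.ker x]
    exact Nat.mul_le_mul_right _ h3)
  have h2 : B * (q + Nat.card (ConjClasses Q) * Nat.card Q) ≤ B * (q + k * Nat.card Q) :=
    Nat.mul_le_mul_left _ (Nat.add_le_add_left (Nat.mul_le_mul_right _ hk) _)
  omega

end Cfsg.Agent.H211.SD
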